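import Cfsg.Agent.H253.SK.Dich
import Cfsg.Agent.KFacts.ChevTwoSysInst
import Cfsg.Agent.H129.TorusChar
import Cfsg.Agent.H155.TG.ChevTab
import Cfsg.Agent.H293.TwExc
import Cfsg.Agent.S1081
import Cfsg.Agent.S1054

/-!
# `E₆(q)`, `q` even: automorphisms trivial on a root group (S3010, helper253)

* `fl_spec` : the graph automorphism `gam`;
* `dich_E6` : inner-diagonal automorphisms; an automorphism trivial on a root group is inner-diagonal or becomes so after
  multiplication by `gam`.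
-/

set_option autoImplicit false
set_option linter.unusedSectionVars false
set_option maxRecDepth 20000

namespace Cfsg.Agent.H253.SK.DichE6

open CoxeterSystem Cfsg.Agent.ChevalleyStructure.CoxeterGeom Cfsg.Agent.Tits.Roots Cfsg.Agent.Tits.Core
  Cfsg.Agent.Tits.RootComb Cfsg.Agent.Nodes.Comb Cfsg.Agent.Nodes.Reps Cfsg.Agent.Nodes.BNOf
open Cfsg Cfsg.Lie Cfsg.Agent.ChevalleyStructure Cfsg.Agent.ChevalleyStructure.Elts
  Cfsg.Agent.ChevalleyStructure.RootVec Cfsg.Agent.ChevalleyStructure.RootVecTab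
  Cfsg.Agent.ChevalleyStructure.NPerm Cfsg.Agent.ChevalleyStructure.CoxeterGeomTypes
open Cfsg.Agent.Nodes Cfsg.Agent.Nodes.RGDChev Cfsg.Agent.Nodes.Coroot Cfsg.Agent.KFacts.ChevTwo
  Cfsg.Agent.KFacts.ChevTwoTab Cfsg.Agent.KFacts.ChevTwoInst Cfsg.Agent.KFacts.RgdChevCoord
open Cfsg.Agent.H253.SK.Dich Cfsg.Agent.H129.TorusChar

universe u v

variable {K : Type u} [Field K]

section Tor

variable {D : ChevalleyDatum} {l : ℕ} {M : CoxeterMatrix (Fin l)} (hp : IsType D l M)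

theorem xc_eq_eg {r : ℕ} (hr : r < D.nroots) (u : K) : xc hp (vec D l r) u = eg hp K (vec D l r) u :=
  Subtype.ext (by rw [coe_xc hp hr, coe_eg, ev_vec hp hr])

/-- torus elements with prescribed `d`-th powers -/
theorem exists_tor {d : ℕ} {B : Fin l → Fin l → ℤ} (hB : InvC D l d B) (hd : d ≠ 0) (c : Fin l → Kˣ) :
    ∃ t ∈ TT D K, ∀ i u, t * eg hp K (sr i) u * t⁻¹ = eg hp K (sr i) ((c i : K) ^ d * u) := by
  have hφ : IsMC (fun x : Fin l → ℤ => ∏ i, ((c i : K) ^ d) ^ x i) :=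
    IsMC.of_prod _ fun i => pow_ne_zero _ (c i).ne_zero
  have hφi : ∀ i, ∏ j, ((c j : K) ^ d) ^ (sr i : Fin l → ℤ) j = (c i : K) ^ d := by
    intro i
    rw [Finset.prod_eq_single i]
    · rw [sr_self, zpow_one]
    · intro j _ hj
      rw [sr_ne hj, zpow_zero]
    · intro hi
      exact absurd (Finset.mem_univ i) hi
  obtain ⟨t, ht, h1⟩ := exists_cX hp hB hd hφ fun i => ⟨(c i : K), (hφi i).symm⟩
  refine ⟨t, ht, fun i u => ?_⟩
  have h2 := (ch_sr_act hp ht i).2 u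
  have hr := simple_lt hp.inList (lt_rank hp i)
  have h3 : ch hp (sr i) t = (c i : K) ^ d := by
    rw [← cX_sr, h1]
    exact hφi i
  rw [h3, ← vec_simple hp i, xc_eq_eg hp hr, xc_eq_eg hp hr] at h2
  rw [← vec_simple hp i]
  exact h2

end Tor

/-- the diagram symmetry -/
def s6 : Equiv.Perm (Fin 6) where
  toFun := ![5, 1, 4, 3, 2, 0]
  invFun := ![5, 1, 4, 3, 2, 0]
  left_inv := by decide
  right_inv := by decide

theorem s6_sq : s6 * s6 = 1 := by decide

theorem s6_mat : ∀ i j, CoxeterMatrix.E₆ (s6 i) (s6 j) = CoxeterMatrix.E₆ i j := by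
  intro i j; fin_cases i <;> fin_cases j <;> decide

theorem s6_symm (i : Fin 6) : s6.symm i = (![5, 1, 4, 3, 2, 0] : Fin 6 → Fin 6) i := rfl

theorem comp_s6 (x : Fin 6 → ℤ) : x ∘ s6.symm = fun i => x ((![5, 1, 4, 3, 2, 0] : Fin 6 → Fin 6) i) := rfl

theorem sym_s6 (σ : Equiv.Perm (Fin 6)) (hσ : ∀ i j, CoxeterMatrix.E₆ (σ i) (σ j) = CoxeterMatrix.E₆ i j) :
    σ = 1 ∨ σ = s6 := by
  by_cases h1 : σ = 1
  · exact Or.inl h1
  · exact Or.inr (Equiv.ext (H293.TwFix.sym_E6 σ hσ h1))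

variable (hp : IsType chevE6 6 CoxeterMatrix.E₆) {W : Type v} [Group W] (cs : CoxeterSystem CoxeterMatrix.E₆ W)

include hp in
theorem laced (σ : Equiv.Perm (Fin 6)) (hσ : ∀ i j, CoxeterMatrix.E₆ (σ i) (σ j) = CoxeterMatrix.E₆ i j) (i j : Fin 6) :
    cartanOf chevE6 6 (σ i) (σ j) = cartanOf chevE6 6 i j :=
  KFacts.RgdTau.cartan_of_laced hp.isCartan (M := CoxeterMatrix.E₆)
    (by intro i j; fin_cases i <;> fin_cases j <;> decide) hσ i j

/-- **The graph automorphism of `E₆(q)`, `q` even, without signs.** -/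
theorem exists_gam [CharP K 2] [Finite K] : ∃ g : MulAut ↥(chevE6.group K), g * g = 1 ∧
    ∀ x, IsRoot cs hp.isCartan x → ∀ u, g (eg hp K x u) =
      eg hp K (fun i => x ((![5, 1, 4, 3, 2, 0] : Fin 6 → Fin 6) i)) u := by
  have : Fact (Nat.Prime 2) := ⟨Nat.prime_two⟩
  have hW : Finite W := finite_W hp cs
  obtain ⟨α, hα⟩ := Cfsg.Agent.S1081.result (F := K) (chevE6, [5, 1, 4, 3, 2, 0]) (by simp)
  have S := sys (K := K) hp twoOK_E6 cs
  have h2 : ∀ t : K, t + t = 0 := fun t => CharTwo.add_self_eq_zero t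
  have hval : ∀ i : Fin 6, ([5, 1, 4, 3, 2, 0] : List ℕ).getD (i : ℕ) 0 = ((s6 i : Fin 6) : ℕ) := by decide
  have c1 : ∀ (i : Fin 6) (u : K), (((eg hp K (sr i) u : ↥(chevE6.group K)) : GL chevE6.Idx K) :
      Matrix chevE6.Idx chevE6.Idx K) = chevE6.x K (chevE6.simple i) u := by
    intro i u
    rw [coe_eg, ev_sr hp i]
    rfl
  have c2 : ∀ (i : Fin 6) (u : K), (((eg hp K (-sr i) u : ↥(chevE6.group K)) : GL chevE6.Idx K) :
      Matrix chevE6.Idx chevE6.Idx K) = chevE6.x K (chevE6.neg (chevE6.simple i)) u := by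
    intro i u
    rw [coe_eg, ev_neg_sr hp i]
    rfl
  have h3 : ∀ i u, α (eg hp K (sr i) u) = eg hp K (sr (s6 i)) u := by
    intro i u
    apply Subtype.ext
    apply Units.ext
    rw [(hα (eg hp K (sr i) u) i u i.isLt).1 (c1 i u), c1 (s6 i) u, ← hval i]
  have h4 : ∀ i u, α (eg hp K (-sr i) u) = eg hp K (-sr (s6 i)) u := by
    intro i u
    apply Subtype.ext
    apply Units.ext
    rw [(hα (eg hp K (-sr i) u) i u i.isLt).2 (c2 i u), c2 (s6 i) u, ← hval i]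
  have h5 : ∀ x, IsRoot cs hp.isCartan x → ∀ u, α (eg hp K x u) = eg hp K (x ∘ s6.symm) u := fun x hx u =>
    graph_root S.data s6_mat (laced hp s6 s6_mat) h3 h4 hx u
  exact ⟨α, graph_sq S (G1_eq_top hp cs) s6_sq s6_mat (laced hp s6 s6_mat) h5, h5⟩

theorem center_E6 : Subgroup.center ↥(chevE6.group K) = ⊥ := by
  obtain ⟨hs, hna⟩ := Cfsg.Agent.S1054.result (F := K) chevE6 (by simp)
  rcases (inferInstance : (Subgroup.center ↥(chevE6.group K)).Normal).eq_bot_or_eq_top with h | h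
  · exact h
  · exfalso
    apply hna
    refine ⟨⟨fun a b => ?_⟩⟩
    have : b ∈ Subgroup.center ↥(chevE6.group K) := by rw [h]; exact Subgroup.mem_top b
    rw [Subgroup.mem_center_iff] at this
    exact this a

theorem noCent_E6 [CharP K 2] [Finite K] : KFacts.RgdCent.NoCent cs hp.isCartan (TT chevE6 K) (XX chevE6 6 K) := by
  have : Fact (Nat.Prime 2) := ⟨Nat.prime_two⟩
  have := finite_W hp cs
  exact KFacts.RgdCent.noCent_of_center (rgd (K := K) hp cs 2) (G1_eq_top hp _) center_E6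

/-- **The dichotomy for `E₆(q)`, `q` even.** -/
theorem dich_E6 [CharP K 2] [Finite K] : ∃ H : Subgroup (MulAut ↥(chevE6.group K)), (∀ k, MulAut.conj k ∈ H) ∧
    (∀ δ ∈ H, ∃ k, δ ^ 3 = MulAut.conj k) ∧
    ∀ g : MulAut ↥(chevE6.group K), (∀ x, IsRoot cs hp.isCartan x → ∀ u, g (eg hp K x u) =
      eg hp K (fun i => x ((![5, 1, 4, 3, 2, 0] : Fin 6 → Fin 6) i)) u) →
    ∀ b, IsRoot cs hp.isCartan b → ∀ α : MulAut ↥(chevE6.group K), (∀ z ∈ XX chevE6 6 K b, α z = z) →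
      α ∈ H ∨ α * g ∈ H := by
  have : Fact (Nat.Prime 2) := ⟨Nat.prime_two⟩
  have hW : Finite W := finite_W hp cs
  have S := sys (K := K) hp twoOK_E6 cs
  refine ⟨innDiag cs hp.isCartan (eg hp K), conj_mem, fun δ hδ => cube S (G1_eq_top hp cs) (m := 3)
    (exists_tor hp invC_E6 (by norm_num)) hδ, fun g hg b hb α hα => ?_⟩
  exact dich S (G1_eq_top hp cs) (noCent_E6 hp cs) H155.TG.conn_E6 (laced hp) s6_sq s6_mat sym_s6
    (g := g) hg hb hα

end Cfsg.Agent.H253.SK.DichE6
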